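/-
The automorphism group of the McLaughlin group has at most twice its order.
-/
import Cfsg.Agent.McL.DA

set_option autoImplicit false
set_option maxRecDepth 100000

namespace CA.McL

open CA.TC hiding wd wd_nil wd_cons wd_append
open CA.PM CA.Fi CA.Typ Cfsg Subgroup Equiv

section
variable {X : Type*} [Group X]

/-- automorphisms fixing the members of a list -/
def Fx (L : List X) : Subgroup (MulAut X) where
  carrier := {α | ∀ x ∈ L, α x = x}
  one_mem' := fun _ _ => rfl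
  mul_mem' := fun {α β} ha hb x hx => by rw [MulAut.mul_apply, hb x hx, ha x hx]
  inv_mem' := fun {α} ha x hx => by nth_rw 1 [← ha x hx]; exact α.symm_apply_apply x

theorem mem_Fx {L : List X} {α : MulAut X} : α ∈ Fx L ↔ ∀ x ∈ L, α x = x := Iff.rfl

theorem fx_step (L : List X) (x : X) {s : Set X} {m : ℕ} (hs : s.Finite) (hm : s.ncard ≤ m)
    (h : ∀ α ∈ Fx L, α x ∈ s) : Nat.card (Fx L) ≤ m * Nat.card (Fx (x :: L)) := by
  rw [card_eq_range (D := Fx L) (K := Fx [x]) (fun α => α⁻¹ x) fun α _ β _ => ?_,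
    show Fx L ⊓ Fx [x] = Fx (x :: L) by ext α; simp [mem_Fx, and_comm]]
  · exact Nat.mul_le_mul_right _ ((Set.ncard_le_ncard (by rintro _ ⟨α, k, rfl⟩; exact h _ (inv_mem k)) hs).trans hm)
  · simp only [mem_Fx, List.mem_singleton, forall_eq, MulAut.mul_apply]
    exact ⟨fun e => by rw [← e]; exact α.apply_symm_apply x, fun e => by
      nth_rw 1 [← e]; exact α.symm_apply_apply _⟩

theorem fix_comm' {α : MulAut X} {r d : X} (h1 : α d = d) (h2 : α (r * d * r⁻¹) = r * d * r⁻¹) :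
    Commute (r⁻¹ * α r) d := conj_eq_iff_commute.1 (by
  rw [map_mul, map_mul, map_inv, h1] at h2
  rw [conj_mul', h2]; group)

theorem fix_wd {α : MulAut X} {a : ℕ → X} {S : ℕ} (h : ∀ g, tb S g = true → α (a g) = a g) {w : List ℕ}
    (hw : inS S w = true) : α (wd a w) = wd a w :=
  (wd_map α.toMonoidHom a w).symm.trans (wd_congr h hw)

end

variable {α : MulAut Spor.McL}

theorem fx_cK (h1 : α (mb 1) = mb 1) (h2 : α (mb 2) = mb 2) (x : Spor.McL) (c1 : Commute x (mb 1))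
    (c2 : Commute x (mb 2)) : Commute (α x) (mb 1) ∧ Commute (α x) (mb 2) := ⟨h1 ▸ c1.map α, h2 ▸ c2.map α⟩

theorem fx_Q (h : α ∈ Fx [mb 3, mb 7 * mb 8, mb 2, mb 1]) : ∀ g, tb SQ g = true → α (mb g) = mb g := by
  simp only [mem_Fx, List.forall_mem_cons] at h
  obtain ⟨h3, hy, h2, h1, -⟩ := h
  obtain ⟨Y, Y1, Y2, Y3⟩ := st_mb.psp p_ok2 α.toMonoidHom (fx_cK h1 h2) (by simpa using h1) (by simpa using h2) hy
  have h6 : α (mb 6) = mb 6 := by
    simp only [McL.Y3, List.mem_cons, List.not_mem_nil, or_false] at Y1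
    change α _ * _ = _ at Y2 Y3
    rw [h3] at Y2
    rcases Y1 with rfl | rfl | rfl
    · simpa using Y3
    · exact absurd (by simpa using Y2) (bm.ne (u := [[3], [7, 8]]) (v := [[7, 8], [3]]) (by decide +kernel))
    · exact absurd (by simpa using Y2) (bm.ne (u := [[3], [8, 7]]) (v := [[8, 7], [3]]) (by decide +kernel))
  have k : ∀ j i, eqW act ALL B [[7, 8, j]] [[i, 7, 8]] = true → α (mb i) = mb i → α (mb j) = mb j := fun j i e r => by
    have : mb j = (mb 7 * mb 8)⁻¹ * (mb i * (mb 7 * mb 8)) :=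
      eq_inv_mul_of_mul_eq (by simpa [mul_assoc] using bm.rm.eq e)
    rw [this, map_mul, map_mul, map_inv, hy, r]
  intro g hg
  have : g = 1 ∨ g = 2 ∨ g = 3 ∨ g = 4 ∨ g = 5 ∨ g = 6 := by
    have := lt16 (by decide) hg
    revert hg; revert g; decide +kernel
  rcases this with rfl | rfl | rfl | rfl | rfl | rfl
  exacts [h1, h2, h3, k 4 3 (by decide +kernel) h3, k 5 6 (by decide +kernel) h6, h6]

theorem fx_c (h : ∀ g, tb SQ g = true → α (mb g) = mb g) (g d : ℕ) (w : List ℕ)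
    (e : band (band (tb SQ d) (inS SQ w)) (eqW act ALL B [[g], [d]] [w, [g]]) = true) :
    Commute ((mb g)⁻¹ * α (mb g)) (mb d) := by
  rw [band_iff, band_iff] at e
  refine fix_comm' (h d e.1.1) ?_
  have := bm.rm.conj e.2
  rw [wd_one, wd_one] at this
  rw [this, fix_wd h e.1.2]

theorem fx_V (h : α ∈ Fx [mb 3, mb 7 * mb 8, mb 2, mb 1]) (g : ℕ) (w1 w2 w3 w6 : List ℕ)
    (e : allL [(1, w1), (2, w2), (3, w3), (6, w6)] (fun r => band (band (tb SQ r.1) (inS SQ r.2))
      (eqW act ALL B [[g], [r.1]] [r.2, [g]])) = true) (ey : eqW act ALL B [[g], [7, 8]] [[8, 7], [g]] = true) :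
    α (mb g) * α (mb g) = 1 ∧ (α (mb g) = mb g ∨ α (mb g) = mb g * mb 1 ∨ α (mb g) = mb g * mb 2 ∨
      α (mb g) = mb g * (mb 1 * mb 2)) := by
  have k := allL_spec e
  simp only [List.forall_mem_cons] at k
  have q := fx_Q h
  have hy := h _ (List.mem_cons_of_mem _ List.mem_cons_self)
  refine ⟨by rw [← map_mul, bm.sq g (inS_cons.1 (eqW_inS ey _ List.mem_cons_self)).1, map_one], ?_⟩
  refine ((st_mb.ksp (fx_c q g 1 w1 k.1) (fx_c q g 2 w2 k.2.1)).2.2 (fx_c q g 3 w3 k.2.2.1) (fx_c q g 6 w6 k.2.2.2.1)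
    (fix_comm' hy ?_)).imp (fun r => (inv_mul_eq_one.1 r).symm) (Or.imp inv_mul_eq_iff_eq_mul.1
      (Or.imp inv_mul_eq_iff_eq_mul.1 inv_mul_eq_iff_eq_mul.1))
  have := bm.rm.conj ey
  rw [show wd mb [8, 7] = (wd mb [7, 8])⁻¹ from bm.sq.rev (w := [7, 8]) (by decide +kernel)] at this
  simp only [wd_cons, wd_nil, mul_one] at this
  rw [this, map_inv, hy]

theorem fx_p {S p : ℕ} {W Rs} (h : ∀ g, tb S g = true → g ≠ p → α (mb g) = mb g)
    (e : ∃ j < 16, wd mb (W j) = (mb p)⁻¹ * α (mb p)) (r1 : allL Rs (fun R => band (inS S R) (eqW act ALL B [R] [])) = true)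
    (r2 : ∀ j < 16, aChk p W Rs j = true) : α (mb p) = mb p := by
  obtain ⟨j, hj, e⟩ := e
  rcases bor_iff.1 (r2 j hj) with k | k
  · rw [leq_spec k] at e
    exact (inv_mul_eq_one.1 e.symm).symm
  · obtain ⟨R, R1, R2⟩ := anyL_spec k
    have := band_iff.1 (allL_spec r1 R R1)
    refine absurd ?_ (bm.ne R2)
    rw [wds_cons, wds_nil, mul_one, wd_flatMap, ← map_one α, ← bm.rm.one this.2]
    refine (wd_congr (fun g hg => ?_) this.1).trans (wd_map α.toMonoidHom mb R)
    by_cases c : g = p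
    · subst c
      rw [beq_iff.2 rfl]
      show wd mb (g :: W j) = α (mb g)
      rw [wd_cons, e, mul_inv_cancel_left]
    · rw [show Nat.beq g p = false from Bool.eq_false_iff.2 fun r => c (beq_iff.1 r)]
      exact (wd_one mb g).trans (h g hg c).symm

theorem fx_one (h : α ∈ Fx [mb 11, mb 7, mb 3, mb 7 * mb 8, mb 2, mb 1]) : α = 1 := by
  have q := fx_Q fun x hx => h x (List.mem_cons_of_mem _ (List.mem_cons_of_mem _ hx))
  simp only [mem_Fx, List.forall_mem_cons] at h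
  obtain ⟨h11, h7, -, hy, -⟩ := h
  have h8 : α (mb 8) = mb 8 := by rwa [map_mul, h7, mul_right_inj] at hy
  have k : ∀ g, tb SNV g = true → α (mb g) = mb g := fun g hg => by
    have : tb SQ g = true ∨ g = 7 ∨ g = 8 ∨ g = 11 := by
      have := lt16 (by decide) hg
      revert hg; revert g; decide +kernel
    rcases this with r | rfl | rfl | rfl
    exacts [q g r, h7, h8, h11]
  have h9 : α (mb 9) = mb 9 := fx_p (S := SN2) (fun g hg c => k g (by
      have := lt16 (by decide) hg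
      revert hg c; revert g; decide +kernel))
    (st_mb.enumB (mem_cW.2 (by
      simpa using ⟨fx_c q 9 6 [2, 5] (by decide +kernel), fx_c q 9 2 [1, 5, 6] (by decide +kernel),
        fx_c q 9 1 [1] (by decide +kernel)⟩))) RWB_1 aWB
  have h10 : α (mb 10) = mb 10 := fx_p (S := SN1) (fun g hg c => k g (by
      have := lt16 (by decide) hg
      revert hg c; revert g; decide +kernel))
    (st_mb.enumA (mem_cW.2 (by
      simpa using ⟨fx_c q 10 3 [1, 3] (by decide +kernel), fx_c q 10 2 [1, 3, 4] (by decide +kernel),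
        fx_c q 10 1 [1] (by decide +kernel)⟩))) RWA_1 aWA
  ext x
  obtain ⟨w, hw, rfl⟩ := (bm.sq.mono (S := S5) (by decide +kernel)).exists_wd (gp5 ▸ mem_top x)
  rw [fix_wd (fun g hg => ?_) hw]
  · rfl
  · have : g = 7 ∨ g = 8 ∨ g = 9 ∨ g = 10 ∨ g = 11 := by
      have := lt16 (by decide) hg
      revert hg; revert g; decide +kernel
    rcases this with rfl | rfl | rfl | rfl | rfl
    exacts [h7, h8, h9, h10, h11]

theorem inv_aut (α : MulAut Spor.McL) {g : ℕ} (hg : tb ALL g = true) (e : neW act ALL B [[g]] [] = true) :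
    α (mb g) * α (mb g) = 1 ∧ α (mb g) ≠ 1 :=
  ⟨by rw [← map_mul, bm.sq g hg, map_one], by simpa using bm.ne e⟩

theorem card_aut_McL : Nat.card (MulAut Spor.McL) ≤ 2 * 898128000 := by
  have s := st_mb.toSt
  have c1 : Nat.card (Fx ([] : List Spor.McL)) ≤ 22275 * Nat.card (Fx [mb 1]) := by
    have e := CA.Loc.card_eq_orbit ⊤ (mb 1)
    rw [card_top, card_McL, top_inf_eq, s.card] at e
    refine fx_step _ _ (s := {y | ∃ c ∈ (⊤ : Subgroup Spor.McL), c * mb 1 * c⁻¹ = y}) (Set.toFinite _) (by omega)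
      fun α _ => ?_
    obtain ⟨i1, i2⟩ := inv_aut α (g := 1) (by decide +kernel) (by decide +kernel)
    obtain ⟨g, -, g2⟩ := conj_odd (H := ⊤) le_top (m := 7016625) (enumT s.bm).2 (by rw [card_top, card_McL]) rfl
      (mem_top _) i1
    have k : IsConj (mb 1) (g⁻¹ * α (mb 1) * g) := by
      rcases s.tsp g2 with r | r | ⟨r, -⟩
      · exact absurd (by simpa [mul_eq_one_iff_eq_inv] using r) i2
      · rw [r]
      · obtain ⟨c, -, c2⟩ := r (by
          rw [show g⁻¹ * α (mb 1) * g * (g⁻¹ * α (mb 1) * g) = g⁻¹ * (α (mb 1) * α (mb 1)) * g by group, i1]; group)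
        exact conj_t_s.trans (isConj_iff.2 ⟨c, c2⟩).symm
    obtain ⟨c, hc⟩ := isConj_iff.1 k
    exact ⟨g * c, mem_top _, by rw [conj_mul', hc]; group⟩
  have c2 : Nat.card (Fx [mb 1]) ≤ 210 * Nat.card (Fx [mb 2, mb 1]) := by
    have e := CA.Loc.card_eq_orbit (centralizer {mb 1}) (mb 2)
    obtain ⟨k1, k2⟩ := enC_spec s.bm enK
    have e2 : 192 ≤ Nat.card (centralizer {mb 1} ⊓ centralizer {mb 2} : Subgroup Spor.McL) :=
      le_ncard (Set.toFinite _) (fun i => wd mb (WK i)) (fun i hi => by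
        have := mem_cW.1 (k1 i hi).2
        simp only [List.forall_mem_cons, wd_one] at this
        exact ⟨mem_cent_iff.2 this.2.1, mem_cent_iff.2 this.1⟩) k2
    rw [s.card] at e
    refine fx_step _ _ (s := {y | ∃ c ∈ centralizer {mb 1}, c * mb 2 * c⁻¹ = y}) (Set.toFinite _)
      (by by_contra r; nlinarith) fun α h => ?_
    have h1 := h _ List.mem_cons_self
    obtain ⟨i1, i2⟩ := inv_aut α (g := 2) (by decide +kernel) (by decide +kernel)
    obtain ⟨c, c1, c2⟩ := s.conj (h1 ▸ (s.cm (g := 2) (k := 1) (by decide +kernel)).map α) i1 i2 (by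
      rw [← h1]; simpa using bm.ne1 (u := [2]) (v := [1]) (by decide +kernel))
    exact ⟨c⁻¹, inv_mem (mem_cent_iff.2 c1), by nth_rw 1 [← c2]; group⟩
  have c3 : Nat.card (Fx [mb 2, mb 1]) ≤ 32 * Nat.card (Fx [mb 7 * mb 8, mb 2, mb 1]) := by
    have fi : {p | p < 192 ∧ o3 p = true}.Finite := (Set.finite_Iio 192).subset fun _ h => h.1
    refine fx_step _ _ (s := (fun i => wd mb (WK i)) '' _) (fi.image _) ((Set.ncard_image_le fi).trans
      ((cnt_spec o3 (d := 2) (by decide)).trans o3_cnt).le) fun α h => ?_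
    simp only [mem_Fx, List.forall_mem_cons] at h
    obtain ⟨d1, d2⟩ := fx_cK h.2.1 h.1 (mb 7 * mb 8)
      (by simpa using bm.rm.comm (u := [7, 8]) (v := [1]) (by decide +kernel))
      (by simpa using bm.rm.comm (u := [7, 8]) (v := [2]) (by decide +kernel))
    obtain ⟨⟨i, i1, i2, i3⟩, -⟩ := (s.ksp d1 d2).1 (by
      rw [← map_pow, show (mb 7 * mb 8) ^ 3 = 1 by simpa using bm.rm.pow (u := [7, 8]) (k := 3) (by decide +kernel),
        map_one]) (by rw [Ne, map_eq_one_iff α α.injective]; simpa using bm.ne (u := [[7, 8]]) (v := []) (by decide +kernel))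
    exact ⟨i, ⟨i1, i2⟩, i3⟩
  have c4 : Nat.card (Fx [mb 7 * mb 8, mb 2, mb 1]) ≤ 3 * Nat.card (Fx [mb 3, mb 7 * mb 8, mb 2, mb 1]) := by
    refine fx_step _ _ (s := {x | x ∈ Y3.map fun Y => wd mb Y * mb 3 * (wd mb Y)⁻¹}) (Set.toFinite _)
      (ncard_le_length fun _ h => h) fun α h => ?_
    simp only [mem_Fx, List.forall_mem_cons] at h
    obtain ⟨Y, Y1, Y2, -⟩ := s.psp p_ok2 α.toMonoidHom (fx_cK h.2.2.1 h.2.1) (by simpa using h.2.2.1)
      (by simpa using h.2.1) h.1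
    exact List.mem_map.2 ⟨Y, Y1, mul_inv_eq_of_eq_mul Y2.symm⟩
  have c5 : Nat.card (Fx [mb 3, mb 7 * mb 8, mb 2, mb 1]) ≤ 2 * Nat.card (Fx [mb 7, mb 3, mb 7 * mb 8, mb 2, mb 1]) := by
    refine fx_step _ _ (s := {x | x ∈ [mb 7, mb 7 * mb 1]}) (Set.toFinite _) (ncard_le_length fun _ h => h) fun α h => ?_
    obtain ⟨e, r | r | r | r⟩ := fx_V h 7 [1] [1, 2] [3, 4] [5, 6] (by decide +kernel) (by decide +kernel)
    · simp [r]
    · simp [r]
    · exact absurd (by simpa [r, mul_assoc] using e) (bm.ne (u := [[7, 2, 7, 2]]) (v := []) (by decide +kernel))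
    · exact absurd (by simpa [r, mul_assoc] using e) (bm.ne (u := [[7, 1, 2, 7, 1, 2]]) (v := []) (by decide +kernel))
  have c6 : Nat.card (Fx [mb 7, mb 3, mb 7 * mb 8, mb 2, mb 1]) ≤
      2 * Nat.card (Fx [mb 11, mb 7, mb 3, mb 7 * mb 8, mb 2, mb 1]) := by
    refine fx_step _ _ (s := {x | x ∈ [mb 11, mb 11 * mb 2]}) (Set.toFinite _) (ncard_le_length fun _ h => h)
      fun α h => ?_
    obtain ⟨e, r | r | r | r⟩ := fx_V (fun x hx => h x (List.mem_cons_of_mem _ hx)) 11 [1, 2] [2] [3, 4] [5]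
      (by decide +kernel) (by decide +kernel)
    · simp [r]
    · exact absurd (by simpa [r, mul_assoc] using e) (bm.ne (u := [[11, 1, 11, 1]]) (v := []) (by decide +kernel))
    · simp [r]
    · exact absurd (by simpa [r, mul_assoc] using e) (bm.ne (u := [[11, 1, 2, 11, 1, 2]]) (v := []) (by decide +kernel))
  rw [show Fx [mb 11, mb 7, mb 3, mb 7 * mb 8, mb 2, mb 1] = ⊥ from eq_bot_iff.2 fun _ h => fx_one h, card_bot] at c6
  rw [show Fx ([] : List Spor.McL) = ⊤ from eq_top_iff.2 fun _ _ _ h => nomatch h] at c1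
  rw [← card_top]
  omega

theorem realizeEqns_McL_DB : True := by
  have := @CA.McL.Fx.eq_1.{0}
  have := @CA.McL.Fx.eq_def.{0}
  have := @CA.McL.Fx.congr_simp.{0}
  trivial

end CA.McL
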